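import Cfsg.Agent.CTwoTab.Co3
import Cfsg.Agent.H65.Ore.Split
import Cfsg.Agent.H555.TwoSp.CoThreeFacts

/-!
# S4546, F_Co3: the degrees of `Co3` modulo 23 (helper610)
-/

set_option autoImplicit false

open Cfsg Subgroup
open Cfsg.Agent.SporRec.Co3.Chain Cfsg.Agent.SporRec.Co3.Ident

namespace Cfsg.Agent.H610.KKL

open Cfsg.Agent.H65.Ore in
theorem Q5b (χ : IrrCharacter G3) : (23 : ℤ) ∣ charDegree (χ : G3 → ℂ) ∨
    ∃ e : ℤ, (e = 1 ∨ e = -1 ∨ e = 11 ∨ e = -11) ∧ (23 : ℤ) ∣ charDegree (χ : G3 → ℂ) - e := by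
  classical
  obtain ⟨hs, hc⟩ := isCo3_G3
  have hfin : Finite G3 := Nat.finite_of_card_ne_zero (by rw [hc]; norm_num)
  have : Fact (Nat.Prime 23) := ⟨by norm_num⟩
  obtain ⟨x, hx⟩ := exists_prime_orderOf_dvd_card' (G := G3) 23 (by rw [hc]; norm_num)
  have hcx : Nat.card (centralizer ({x} : Set G3)) = 23 := by
    have h := Cfsg.Agent.H555.TwoSp.c23 (T := G3) ⟨Cfsg.Agent.SporRec.Co3.Model.equivCo3⟩ (zpowers x)
      (by rw [Nat.card_zpowers, hx])
    rwa [SmallSimple.SelfCentPrime.centralizer_zpowers] at h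
  have hna : ¬ IsMulCommutative G3 := by
    intro h
    have h1 : centralizer ({x} : Set G3) = ⊤ := by
      rw [eq_top_iff]
      intro y _
      rw [mem_centralizer_singleton_iff]
      exact h.is_comm.comm y x
    rw [h1, Subgroup.card_top, hc] at hcx
    omega
  obtain ⟨NE, X, hD⟩ := exists_dat hna (p := 23) (by norm_num) hc hx hcx 11 2 1000 (by decide +kernel)
  by_cases hNE : χ ∈ NE
  · right
    rcases hD.ne_deg χ hNE with h | h
    · exact ⟨1, Or.inl rfl, by omega⟩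
    · exact ⟨-1, Or.inr (Or.inl rfl), by omega⟩
  by_cases hX : χ ∈ X
  · right
    rcases hD.x_deg χ hX with h | h
    · exact ⟨11, Or.inr (Or.inr (Or.inl rfl)), by omega⟩
    · exact ⟨-11, Or.inr (Or.inr (Or.inr rfl)), by omega⟩
  left
  obtain ⟨m, hm⟩ := SmallSimple.TheoremBCor.degree_nonexc (G := G3) (P := zpowers x) (p := 23)
    (by rw [Nat.card_zpowers, hx]) (Cfsg.Agent.Characters.Core.isIrr_isCharacter χ.2) (ε := 0) (fun y hy hy1 => by
      have hy2 : orderOf y = 23 := by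
        have h1 : orderOf y ∣ 23 := by rw [← hx]; exact orderOf_dvd_of_mem_zpowers hy
        rcases (Nat.dvd_prime (by norm_num)).1 h1 with h | h
        · exact absurd (orderOf_eq_one_iff.1 h) hy1
        · exact h
      rw [hD.off χ hNE hX y hy2]
      simp)
  rw [cast_deg] at hm
  have h2 : (charDegree (χ : G3 → ℂ) : ℤ) = 23 * m := by
    have : ((charDegree (χ : G3 → ℂ) : ℤ) : ℂ) = ((23 * m : ℤ) : ℂ) := by push_cast; push_cast at hm; linear_combination hm
    exact_mod_cast this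
  exact ⟨m, h2⟩

end Cfsg.Agent.H610.KKL
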